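import Cfsg.Agent.Lib.H15.MH0

/-!
# S4221, piece X3: uniqueness of the involution fixing `a`, `b` and moving `c` to `d`
-/

set_option autoImplicit false

namespace H6.MHX3

open H15.MH

universe u v

variable {G : Type u} {α : Type v} [Group G] [MulAction G α]

theorem third (h : Hyp3 G α) {a b : α} (hab : a ≠ b) (s : G) (hs : orderOf s = 2)
    (ha : s • a = a) (hb : s • b = b) :
    ∃ e : α, e ≠ a ∧ e ≠ b ∧ s • e = e ∧ ∀ x : α, s • x = x → x = a ∨ x = b ∨ x = e := by
  obtain ⟨p, q, r, hpq, hpr, hqr, hf⟩ := h.fx s hs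
  have h1 := (hf a).1 ha
  have h2 := (hf b).1 hb
  rcases h1 with rfl | rfl | rfl <;> rcases h2 with rfl | rfl | rfl
  · exact absurd rfl hab
  · exact ⟨r, hpr.symm, hqr.symm, (hf r).2 (Or.inr (Or.inr rfl)), fun x hx => (hf x).1 hx⟩
  · refine ⟨q, hpq.symm, hqr, (hf q).2 (Or.inr (Or.inl rfl)), fun x hx => ?_⟩
    rcases (hf x).1 hx with h | h | h
    · exact Or.inl h
    · exact Or.inr (Or.inr h)
    · exact Or.inr (Or.inl h)
  · refine ⟨r, hqr.symm, hpr.symm, (hf r).2 (Or.inr (Or.inr rfl)), fun x hx => ?_⟩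
    rcases (hf x).1 hx with h | h | h
    · exact Or.inr (Or.inl h)
    · exact Or.inl h
    · exact Or.inr (Or.inr h)
  · exact absurd rfl hab
  · refine ⟨p, hpq, hpr, (hf p).2 (Or.inl rfl), fun x hx => ?_⟩
    rcases (hf x).1 hx with h | h | h
    · exact Or.inr (Or.inr h)
    · exact Or.inl h
    · exact Or.inr (Or.inl h)
  · refine ⟨q, hqr, hpq.symm, (hf q).2 (Or.inr (Or.inl rfl)), fun x hx => ?_⟩
    rcases (hf x).1 hx with h | h | h
    · exact Or.inr (Or.inl h)
    · exact Or.inr (Or.inr h)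
    · exact Or.inl h
  · refine ⟨p, hpr, hpq, (hf p).2 (Or.inl rfl), fun x hx => ?_⟩
    rcases (hf x).1 hx with h | h | h
    · exact Or.inr (Or.inr h)
    · exact Or.inr (Or.inl h)
    · exact Or.inl h
  · exact absurd rfl hab

/-- for three distinct points there is an involution fixing them -/
theorem exists_z (h : Hyp3 G α) {a b c d : α} (hD : D4 a b c d) {e : α} (hea : e ≠ a) (heb : e ≠ b) :
    ∃ z : G, orderOf z = 2 ∧ z • a = a ∧ z • b = b ∧ z • e = e := by
  obtain ⟨u, hu, ua, ub, uc, ud⟩ := exists_u h.toHyp hD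
  obtain ⟨hab, hac, had, hbc, hbd, hcd⟩ := hD
  obtain ⟨e0, h1, h2, h3, h4⟩ := third h hab u hu ua ub
  by_cases he : e = e0
  · exact ⟨u, hu, ua, ub, by rw [he]; exact h3⟩
  · have hc0 : c ≠ e0 := by
      rintro rfl
      rw [h3] at uc
      exact hcd uc
    obtain ⟨g, ga, gb, ge, -⟩ := h.toHyp.tr a b e0 c a b e e0 ⟨hab, h1.symm, hac, h2.symm, hbc, hc0.symm⟩
      ⟨hab, hea.symm, h1.symm, heb.symm, h2.symm, he⟩
    refine ⟨g * u * g⁻¹, ?_, ?_, ?_, ?_⟩
    · have : g * u * g⁻¹ = MulAut.conj g u := by simp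
      rw [this]
      rw [MulEquiv.orderOf_eq]
      exact hu
    · have : g⁻¹ • a = a := by rw [inv_smul_eq_iff]; exact ga.symm
      rw [mul_smul, mul_smul, this, ua, ga]
    · have : g⁻¹ • b = b := by rw [inv_smul_eq_iff]; exact gb.symm
      rw [mul_smul, mul_smul, this, ub, gb]
    · have : g⁻¹ • e = e0 := by rw [inv_smul_eq_iff]; exact ge.symm
      rw [mul_smul, mul_smul, this, h3, ge]

theorem unique_u [Finite α] (h : Hyp3 G α) : ∀ a b c d : α, D4 a b c d → ∀ s t : G, orderOf s = 2 →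
    orderOf t = 2 → s • a = a → s • b = b → s • c = d → t • a = a → t • b = b → t • c = d → s = t := by
  intro a b c d hD s t hs ht sa sb sc ta tb tc
  have hab : a ≠ b := hD.1
  have hac : a ≠ c := hD.2.1
  have hbc : b ≠ c := hD.2.2.2.1
  have hcd : c ≠ d := hD.2.2.2.2.2
  let X : Type v := {e : α // e ≠ a ∧ e ≠ b ∧ e ≠ c}
  have hz : ∀ e : X, ∃ z : G, orderOf z = 2 ∧ z • a = a ∧ z • b = b ∧ z • (e : α) = e :=
    fun e => exists_z h hD e.2.1 e.2.2.1
  choose z hz2 hza hzb hze using hz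
  have hun : ∀ (e : X) (w : G), orderOf w = 2 → w • a = a → w • b = b → w • (e : α) = e → w = z e := by
    intro e w hw wa wb we
    exact h.un a b e hab (Ne.symm e.2.1) (Ne.symm e.2.2.1) w (z e) hw (hz2 e) wa wb we (hza e) (hzb e) (hze e)
  have hF : ∀ e : X, z e • c ≠ a ∧ z e • c ≠ b ∧ z e • c ≠ c := by
    intro e
    refine ⟨fun h1 => ?_, fun h1 => ?_, fun h1 => ?_⟩
    · rw [← hza e] at h1
      exact hac (smul_left_cancel _ h1).symm
    · rw [← hzb e] at h1
      exact hbc (smul_left_cancel _ h1).symm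
    · obtain ⟨e', -, -, -, h4⟩ := third h hab (z e) (hz2 e) (hza e) (hzb e)
      rcases h4 c h1 with h5 | h5 | h5
      · exact hac h5.symm
      · exact hbc h5.symm
      · rcases h4 e (hze e) with h6 | h6 | h6
        · exact e.2.1 h6
        · exact e.2.2.1 h6
        · exact e.2.2.2 (h6.trans h5.symm)
  -- an involution fixing `a`, `b` and not fixing `c` is some `z e`
  have hex : ∀ w : G, orderOf w = 2 → w • a = a → w • b = b → w • c ≠ c → ∃ e : X, w = z e := by
    intro w hw wa wb wc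
    obtain ⟨e, h1, h2, h3, -⟩ := third h hab w hw wa wb
    have hec : e ≠ c := by
      rintro rfl
      exact wc h3
    exact ⟨⟨e, h1, h2, hec⟩, hun ⟨e, h1, h2, hec⟩ w hw wa wb h3⟩
  let F : X → X := fun e => ⟨z e • c, hF e⟩
  have hsurj : Function.Surjective F := by
    intro x
    obtain ⟨u, hu, ua, ub, uc, -⟩ := exists_u h.toHyp
      (⟨hab, hac, Ne.symm x.2.1, hbc, Ne.symm x.2.2.1, Ne.symm x.2.2.2⟩ : D4 a b c (x : α))
    obtain ⟨e, he⟩ := hex u hu ua ub (by rw [uc]; exact x.2.2.2)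
    refine ⟨e, Subtype.ext ?_⟩
    change z e • c = x
    rw [← he, uc]
  have hinj : Function.Injective F := Finite.injective_iff_surjective.2 hsurj
  obtain ⟨e1, he1⟩ := hex s hs sa sb (by rw [sc]; exact hcd.symm)
  obtain ⟨e2, he2⟩ := hex t ht ta tb (by rw [tc]; exact hcd.symm)
  have : e1 = e2 := by
    apply hinj
    apply Subtype.ext
    change z e1 • c = z e2 • c
    rw [← he1, ← he2, sc, tc]
  rw [he1, he2, this]

end H6.MHX3
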