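import Mathlib
import Cfsg.Agent.Lib.H6.GrDet
import Cfsg.Agent.Lib.H50.PSLCount

/-!
The dictionary between involutory graph automorphisms of `PSL_n(F)` and symmetric or skew matrices over `F`.
-/

set_option autoImplicit false
set_option linter.unusedSectionVars false

namespace H6.GrPSL

open Matrix H50.PSLBasic H50.PSLUniq H50.PSLField H50.ClassCount H50.PSLOut H50.PSLCount H6.GrSim H6.GrForms H6.GrProj
  H6.GrCard H6.GrDict H6.GrDet

variable {F : Type*} [Field F] {n : ℕ}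

/-- `γ` corresponds to the matrix `M` -/
def R (γ : MulAut (ProjectiveSpecialLinearGroup (Fin n) F)) (M : Matrix (Fin n) (Fin n) F) : Prop :=
  ∃ g : GL (Fin n) F, γ = psi g 1 * iota ∧ ((g⁻¹ : GL (Fin n) F) : Matrix (Fin n) (Fin n) F) = M ∧ (Mᵀ = M ∨ Mᵀ = -M)

/-- involutory graph automorphisms -/
def Gr (γ : MulAut (ProjectiveSpecialLinearGroup (Fin n) F)) : Prop := Cfsg.IsGraphAutClassPSL γ ∧ orderOf γ = 2

lemma conj_graph (h g : GL (Fin n) F) :
    psi h 1 * (psi g 1 * iota) * (psi h 1)⁻¹ = psi (h * g * glInvTr h⁻¹) 1 * iota := by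
  rw [mul_inv_eq_iff_eq_mul, psi_iota_mul, ← mul_assoc, psi_mul', glMap_one_apply, glMap_one_apply, mul_assoc (h * g),
    ← map_mul, inv_mul_cancel, map_one, mul_one, mul_one]

lemma graph_eq_iff (hn : 2 ≤ n) {g g' : GL (Fin n) F} :
    psi g' 1 * iota = psi g 1 * iota ↔ ∃ u : Fˣ, g' = sc u * g := by
  have hnt : Nontrivial (Fin n) := Fin.nontrivial_iff_two_le.mpr hn
  rw [mul_left_inj, psi_eq_psi_iff']
  simp

/-- congruence of the inverse matrices -/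
lemma inv_congr {g g' h : GL (Fin n) F} {u : Fˣ} :
    g' = sc u * (h * g * glInvTr h⁻¹) ↔
      ((h⁻¹ : GL (Fin n) F) : Matrix (Fin n) (Fin n) F)ᵀ * ((g⁻¹ : GL (Fin n) F) : Matrix (Fin n) (Fin n) F) *
        ((h⁻¹ : GL (Fin n) F) : Matrix (Fin n) (Fin n) F) = (u : F) • ((g'⁻¹ : GL (Fin n) F) : Matrix (Fin n) (Fin n) F) := by
  have e1 : ((h⁻¹ : GL (Fin n) F) : Matrix (Fin n) (Fin n) F)ᵀ * ((g⁻¹ : GL (Fin n) F) : Matrix (Fin n) (Fin n) F) *
        ((h⁻¹ : GL (Fin n) F) : Matrix (Fin n) (Fin n) F) = ((glInvTr h * g⁻¹ * h⁻¹ : GL (Fin n) F) : Matrix (Fin n) (Fin n) F) := by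
    rw [Units.val_mul, Units.val_mul, glInvTr_coe]
  rw [e1, ← sc_mul_coe]
  constructor
  · rintro rfl
    congr 1
    rw [_root_.mul_inv_rev, _root_.mul_inv_rev, _root_.mul_inv_rev, sc_comm u, map_inv, inv_inv, mul_assoc (glInvTr h), mul_assoc,
      inv_mul_cancel, mul_one]
  · intro h1
    have h2 := Units.ext h1
    have h3 : g' = (glInvTr h * g⁻¹ * h⁻¹)⁻¹ * sc u := by
      rw [h2, _root_.mul_inv_rev, inv_inv, mul_assoc, inv_mul_cancel, mul_one]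
    rw [h3, sc_comm u, _root_.mul_inv_rev, _root_.mul_inv_rev, inv_inv, inv_inv, map_inv]
    simp only [mul_assoc]

lemma sim_iff {g g' : GL (Fin n) F} :
    Sim ((g⁻¹ : GL (Fin n) F) : Matrix (Fin n) (Fin n) F) ((g'⁻¹ : GL (Fin n) F) : Matrix (Fin n) (Fin n) F) ↔
      ∃ (h : GL (Fin n) F) (u : Fˣ), g' = sc u * (h * g * glInvTr h⁻¹) := by
  constructor
  · rintro ⟨P, P', c, h1, h2, h3⟩
    refine ⟨⟨P', P, h2, h1⟩, c, ?_⟩
    rw [inv_congr]
    exact h3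
  · rintro ⟨h, u, h1⟩
    rw [inv_congr] at h1
    refine ⟨((h⁻¹ : GL (Fin n) F) : Matrix (Fin n) (Fin n) F), (h : Matrix (Fin n) (Fin n) F), u, ?_, ?_, h1⟩
    · rw [← Units.val_mul, inv_mul_cancel, Units.val_one]
    · rw [← Units.val_mul, mul_inv_cancel, Units.val_one]

lemma mem_cent_iff (hn : 2 ≤ n) {g h : GL (Fin n) F} :
    psi h 1 ∈ Subgroup.centralizer {psi g 1 * iota} ↔
      h ∈ simG ((g⁻¹ : GL (Fin n) F) : Matrix (Fin n) (Fin n) F) := by
  rw [mem_centralizer_singleton, ← mul_inv_eq_iff_eq_mul, conj_graph, graph_eq_iff hn, ← inv_mem_iff (x := h), mem_simG]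
  constructor
  · rintro ⟨u, hu⟩
    refine ⟨u⁻¹, ?_⟩
    apply inv_congr.mp
    rw [hu, ← mul_assoc, ← map_mul, inv_mul_cancel, map_one, one_mul]
  · rintro ⟨u, hu⟩
    refine ⟨u⁻¹, ?_⟩
    have := inv_congr.mpr hu
    conv_rhs => rw [this]
    rw [← mul_assoc, ← map_mul, inv_mul_cancel, map_one, one_mul]

lemma graph_iff {γ : MulAut (ProjectiveSpecialLinearGroup (Fin n) F)} :
    Cfsg.IsGraphAutClassPSL γ ↔ 3 ≤ n ∧ ∃ g : GL (Fin n) F, γ = psi g 1 * iota := by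
  unfold Cfsg.IsGraphAutClassPSL
  constructor
  · rintro ⟨h3, δ, ι', h1, h2, h4⟩
    obtain ⟨g, rfl⟩ := (isInnerDiagonal_iff δ).mp h1
    rw [isInvTr_iff] at h2
    exact ⟨h3, g, by rw [h4, h2]; rfl⟩
  · rintro ⟨h3, g, rfl⟩
    exact ⟨h3, psi g 1, iota, (isInnerDiagonal_iff _).mpr ⟨g, rfl⟩, (isInvTr_iff _).mpr rfl, rfl⟩

lemma sq_graph (g : GL (Fin n) F) : (psi g 1 * iota) ^ 2 = psi (g * glInvTr g) 1 := by
  rw [pow_two, ← mul_assoc, psi_iota_mul, glMap_one_apply, mul_one, mul_assoc, iota_mul_self, mul_one]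

/-- square one iff symmetric or skew -/
lemma sq_eq_one_iff (hn : 2 ≤ n) (g : GL (Fin n) F) :
    (psi g 1 * iota) ^ 2 = 1 ↔ ((g⁻¹ : GL (Fin n) F) : Matrix (Fin n) (Fin n) F)ᵀ =
        ((g⁻¹ : GL (Fin n) F) : Matrix (Fin n) (Fin n) F) ∨
      ((g⁻¹ : GL (Fin n) F) : Matrix (Fin n) (Fin n) F)ᵀ = -((g⁻¹ : GL (Fin n) F) : Matrix (Fin n) (Fin n) F) := by
  have hnt : Nontrivial (Fin n) := Fin.nontrivial_iff_two_le.mpr hn
  have hne : Nonempty (Fin n) := inferInstance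
  rw [sq_graph, psi_eq_one_iff]
  have hg1 : ((g⁻¹ : GL (Fin n) F) : Matrix (Fin n) (Fin n) F) * (g : Matrix (Fin n) (Fin n) F) = 1 := by
    rw [← Units.val_mul, inv_mul_cancel, Units.val_one]
  have hg2 : (g : Matrix (Fin n) (Fin n) F) * ((g⁻¹ : GL (Fin n) F) : Matrix (Fin n) (Fin n) F) = 1 := by
    rw [← Units.val_mul, mul_inv_cancel, Units.val_one]
  constructor
  · rintro ⟨-, u, hu⟩
    -- g (g⁻¹)ᵀ = u
    have h1 : (g : Matrix (Fin n) (Fin n) F) * ((g⁻¹ : GL (Fin n) F) : Matrix (Fin n) (Fin n) F)ᵀ = (u : F) • 1 := by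
      rw [← glInvTr_coe, ← Units.val_mul, hu, sc_coe]
    have h2 : ((g⁻¹ : GL (Fin n) F) : Matrix (Fin n) (Fin n) F)ᵀ =
        (u : F) • ((g⁻¹ : GL (Fin n) F) : Matrix (Fin n) (Fin n) F) := by
      calc _ = ((g⁻¹ : GL (Fin n) F) : Matrix (Fin n) (Fin n) F) * ((g : Matrix (Fin n) (Fin n) F) *
            ((g⁻¹ : GL (Fin n) F) : Matrix (Fin n) (Fin n) F)ᵀ) := by rw [← Matrix.mul_assoc, hg1, Matrix.one_mul]
        _ = _ := by rw [h1, Matrix.mul_smul, Matrix.mul_one]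
    have h3 := congrArg Matrix.transpose h2
    rw [Matrix.transpose_transpose, Matrix.transpose_smul, h2, smul_smul] at h3
    have hM0 : ((g⁻¹ : GL (Fin n) F) : Matrix (Fin n) (Fin n) F) ≠ 0 := by
      intro h0
      rw [h0, Matrix.zero_mul] at hg1
      exact zero_ne_one hg1
    have h4 : (u : F) * u = 1 := by
      apply smul_inj hM0
      rw [← h3, one_smul]
    rcases mul_self_eq_one_iff.mp h4 with h5 | h5
    · left; rw [h2, h5, one_smul]
    · right; rw [h2, h5, neg_smul, one_smul]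
  · intro h
    refine ⟨rfl, ?_⟩
    rcases h with h | h
    · refine ⟨1, Units.ext ?_⟩
      rw [Units.val_mul, glInvTr_coe, h, hg2, map_one, Units.val_one]
    · refine ⟨-1, Units.ext ?_⟩
      rw [Units.val_mul, glInvTr_coe, h, Matrix.mul_neg, hg2, sc_coe, Units.val_neg, Units.val_one, neg_smul, one_smul]

lemma orderOf_graph (h3 : 3 ≤ n) (g : GL (Fin n) F) (h : (psi g 1 * iota) ^ 2 = 1) : orderOf (psi g 1 * iota) = 2 := by
  apply orderOf_eq_prime h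
  intro h1
  have := psi_ne_psi_iota (ι := Fin n) (by rw [Fintype.card_fin]; exact h3) (1 : GL (Fin n) F) g 1 1
  apply this
  rw [h1]
  exact psi_one

/-- **the dictionary for `PSL`** -/
theorem dict (h3 : 3 ≤ n) : Dict (Cfsg.inndiagPSL n F) (Gr (F := F) (n := n)) R where
  ex := by
    rintro γ ⟨h1, h2⟩
    obtain ⟨-, g, rfl⟩ := graph_iff.mp h1
    have h4 : (psi g 1 * iota) ^ 2 = 1 := by rw [← h2, pow_orderOf_eq_one]
    exact ⟨_, g, rfl, rfl, (sq_eq_one_iff (by omega) g).mp h4⟩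
  det := by
    rintro γ M ⟨g, rfl, rfl, -⟩
    exact ((Matrix.isUnit_iff_isUnit_det _).mp (g⁻¹ : GL (Fin n) F).isUnit).ne_zero
  sym := by
    rintro γ M ⟨g, rfl, rfl, h⟩
    exact h
  surj := by
    intro M hM hs
    let a : GL (Fin n) F := Matrix.GeneralLinearGroup.mkOfDetNeZero M hM
    have ha : (a : Matrix (Fin n) (Fin n) F) = M := rfl
    have hinv : ((a⁻¹⁻¹ : GL (Fin n) F) : Matrix (Fin n) (Fin n) F) = M := by rw [inv_inv, ha]
    have hsq : (psi a⁻¹ 1 * iota) ^ 2 = 1 := by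
      rw [sq_eq_one_iff (by omega), hinv]; exact hs
    exact ⟨psi a⁻¹ 1 * iota, ⟨graph_iff.mpr ⟨h3, _, rfl⟩, orderOf_graph h3 _ hsq⟩, a⁻¹, rfl, hinv, hs⟩
  conj := by
    rintro γ γ' M M' ⟨g, rfl, rfl, h⟩ ⟨g', rfl, rfl, h'⟩
    rw [sim_iff]
    constructor
    · rintro ⟨x, hx, h1⟩
      obtain ⟨a, rfl⟩ := mem_inndiag_iff.mp hx
      refine ⟨a, (graph_eq_iff (by omega)).mp ?_⟩
      rw [h1]
      exact conj_graph a g
    · rintro ⟨a, u, h1⟩
      refine ⟨psi a 1, mem_inndiag_iff.mpr ⟨a, rfl⟩, ?_⟩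
      rw [conj_graph, (graph_eq_iff (by omega)).mpr ⟨u, h1⟩]
  cent := by
    rintro γ M ⟨g, rfl, rfl, h⟩
    have hnt : Nontrivial (Fin n) := Fin.nontrivial_iff_two_le.mpr (by omega)
    apply nonempty_mulEquiv (psiHom.comp (simG ((g⁻¹ : GL (Fin n) F) : Matrix (Fin n) (Fin n) F)).subtype)
      ((Cfsg.Geo.scalars (Fin n) F).subgroupOf (simG ((g⁻¹ : GL (Fin n) F) : Matrix (Fin n) (Fin n) F)))
    · intro x
      rw [Subgroup.mem_inf]
      constructor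
      · rintro ⟨hx1, hx2⟩
        obtain ⟨a, rfl⟩ := mem_inndiag_iff.mp hx1
        exact ⟨⟨a, (mem_cent_iff (by omega)).mp hx2⟩, rfl⟩
      · rintro ⟨a, rfl⟩
        exact ⟨mem_inndiag_iff.mpr ⟨_, rfl⟩, (mem_cent_iff (by omega)).mpr a.2⟩
    · intro a
      change psi (a : GL (Fin n) F) 1 = 1 ↔ _
      rw [psi_eq_one_iff, Subgroup.mem_subgroupOf]
      constructor
      · rintro ⟨-, u, hu⟩
        exact ⟨u, hu.symm⟩
      · rintro ⟨u, hu⟩
        exact ⟨rfl, u, hu.symm⟩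

/-! ### class counts -/

lemma card_units [Fintype F] {c : ℕ} (hF : Fintype.card F = c) : Nat.card Fˣ = c - 1 := by
  rw [Nat.card_units, Nat.card_eq_fintype_card, hF]

lemma mem_B {g : GL (Fin n) F} (h3 : 3 ≤ n) (a : Fˣ) :
    (∃ (h : GL (Fin n) F) (w : Fˣ), psi h 1 ∈ Subgroup.centralizer {psi g 1 * iota} ∧ detU h = a * w ^ n) ↔
    ∃ (h : GL (Fin n) F) (c w : Fˣ), (h : Matrix (Fin n) (Fin n) F)ᵀ *
      ((g⁻¹ : GL (Fin n) F) : Matrix (Fin n) (Fin n) F) * (h : Matrix (Fin n) (Fin n) F) =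
        (c : F) • ((g⁻¹ : GL (Fin n) F) : Matrix (Fin n) (Fin n) F) ∧ detU h = a * w ^ n := by
  constructor
  · rintro ⟨h, w, h1, h2⟩
    rw [mem_cent_iff (by omega)] at h1
    obtain ⟨c, hc⟩ := h1
    exact ⟨h, c, w, hc, h2⟩
  · rintro ⟨h, c, w, h1, h2⟩
    exact ⟨h, w, (mem_cent_iff (by omega)).mpr ⟨c, h1⟩, h2⟩

theorem split_alt [Fintype F] (h3 : 3 ≤ n) {m : ℕ} (hn : n = 2 * m) {γ : MulAut (ProjectiveSpecialLinearGroup (Fin n) F)}
    {M : Matrix (Fin n) (Fin n) F} (hR : R γ M) (hA : IsAlt M) :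
    Cfsg.splitClassCount (Cfsg.inndiagPSL n F) (Cfsg.Inn (ProjectiveSpecialLinearGroup (Fin n) F)) γ =
      Nat.gcd m (Fintype.card F - 1) := by
  obtain ⟨g, rfl, rfl, -⟩ := hR
  have hd : ((g⁻¹ : GL (Fin n) F) : Matrix (Fin n) (Fin n) F).det ≠ 0 :=
    ((Matrix.isUnit_iff_isUnit_det _).mp (g⁻¹ : GL (Fin n) F).isUnit).ne_zero
  rw [splitClassCount_psl (by omega) _ (powMonoidHom m : Fˣ →* Fˣ).range, IsCyclic.index_powMonoidHom_range,
    card_units rfl, Nat.gcd_comm]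
  intro a
  rw [mem_B h3]
  constructor
  · rintro ⟨b, rfl⟩
    obtain ⟨s, hs⟩ := exists_alt hn (by omega) hd hA b
    refine ⟨s, b, 1, hs, ?_⟩
    rw [one_pow, mul_one]
    apply Units.ext
    rw [detU_coe, det_alt hn hd hA hs]
    simp
  · rintro ⟨s, c, w, hs, h2⟩
    refine ⟨c * (w⁻¹) ^ 2, ?_⟩
    have h5 : detU s = c ^ m := by
      apply Units.ext
      rw [detU_coe, det_alt hn hd hA hs]
      simp
    rw [h5] at h2
    change (c * (w⁻¹) ^ 2) ^ m = a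
    rw [mul_pow, h2, ← pow_mul, ← hn, inv_pow, mul_inv_cancel_right]

theorem split_sym [Fintype F] (h2 : (2 : F) ≠ 0) (h3 : 3 ≤ n) {m : ℕ} (hn : n = 2 * m)
    {γ : MulAut (ProjectiveSpecialLinearGroup (Fin n) F)} {M : Matrix (Fin n) (Fin n) F} (hR : R γ M) (hS : Mᵀ = M) :
    Cfsg.splitClassCount (Cfsg.inndiagPSL n F) (Cfsg.Inn (ProjectiveSpecialLinearGroup (Fin n) F)) γ =
      Nat.gcd n (Fintype.card F - 1) / 2 := by
  obtain ⟨g, rfl, rfl, -⟩ := hR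
  have hd : ((g⁻¹ : GL (Fin n) F) : Matrix (Fin n) (Fin n) F).det ≠ 0 :=
    ((Matrix.isUnit_iff_isUnit_det _).mp (g⁻¹ : GL (Fin n) F).isUnit).ne_zero
  have hodd : Odd (Fintype.card F) := by
    have := (H48.FinFieldSq.two_ne_zero_iff_odd_card (F := F)).mp h2
    rwa [Nat.card_eq_fintype_card] at this
  have hidx : (Subgroup.zpowers (-1 : Fˣ)).index = (Fintype.card F - 1) / 2 := by
    have h4 := Subgroup.card_mul_index (Subgroup.zpowers (-1 : Fˣ))
    have h5 : Nat.card (Subgroup.zpowers (-1 : Fˣ)) = 2 := by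
      rw [Nat.card_zpowers]
      apply orderOf_eq_prime (by simp)
      intro h
      apply h2
      have := congrArg (fun u : Fˣ => (u : F)) h
      simp only [Units.val_neg, Units.val_one] at this
      linear_combination -this
    rw [h5, card_units rfl] at h4
    omega
  have hgcd : Nat.gcd m ((Fintype.card F - 1) / 2) = Nat.gcd n (Fintype.card F - 1) / 2 := by
    obtain ⟨r, hr⟩ := hodd
    have h6 : Fintype.card F - 1 = 2 * r := by omega
    rw [h6, hn, Nat.gcd_mul_left, Nat.mul_div_cancel_left _ (by norm_num), Nat.mul_div_cancel_left _ (by norm_num)]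
  rw [splitClassCount_psl (by omega) _ (Subgroup.zpowers (-1 : Fˣ) ⊔ (powMonoidHom m : Fˣ →* Fˣ).range),
    index_sup_pow, hidx, hgcd]
  intro a
  rw [mem_B h3, Subgroup.mem_sup]
  have hz : ∀ x : Fˣ, x ∈ Subgroup.zpowers (-1 : Fˣ) ↔ x = 1 ∨ x = -1 := by
    intro x
    rw [Subgroup.mem_zpowers_iff]
    constructor
    · rintro ⟨j, rfl⟩
      rcases Int.even_or_odd j with h | h
      · left; exact h.neg_one_zpow
      · right; exact h.neg_one_zpow
    · rintro (rfl | rfl)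
      · exact ⟨0, by simp⟩
      · exact ⟨1, by simp⟩
  constructor
  · rintro ⟨x, hx, _, ⟨b, rfl⟩, rfl⟩
    obtain ⟨s, hs, hs'⟩ := exists_sym h2 hn (by omega) hd hS b (x : F) (by
      rcases (hz x).mp hx with rfl | rfl
      · left; simp
      · right; simp)
    refine ⟨s, b, 1, hs, ?_⟩
    rw [one_pow, mul_one]
    apply Units.ext
    rw [detU_coe, hs']
    simp
  · rintro ⟨s, c, w, hs, h5⟩
    have h6 : ∃ x : Fˣ, x ∈ Subgroup.zpowers (-1 : Fˣ) ∧ detU s = x * c ^ m := by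
      rcases det_sym hn hd hs with h | h
      · exact ⟨1, (hz 1).mpr (Or.inl rfl), Units.ext (by rw [detU_coe, h]; simp)⟩
      · exact ⟨-1, (hz _).mpr (Or.inr rfl), Units.ext (by rw [detU_coe, h]; simp)⟩
    obtain ⟨x, hx, h7⟩ := h6
    refine ⟨x, hx, _, ⟨c * (w⁻¹) ^ 2, rfl⟩, ?_⟩
    change x * (c * (w⁻¹) ^ 2) ^ m = a
    rw [mul_pow, ← mul_assoc, ← h7, h5, ← pow_mul, ← hn, inv_pow, mul_inv_cancel_right]

theorem split_else [Fintype F] (h3 : 3 ≤ n) (hn : ¬ (Even n ∧ (2 : F) ≠ 0))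
    {γ : MulAut (ProjectiveSpecialLinearGroup (Fin n) F)} {M : Matrix (Fin n) (Fin n) F} (hR : R γ M) :
    Cfsg.splitClassCount (Cfsg.inndiagPSL n F) (Cfsg.Inn (ProjectiveSpecialLinearGroup (Fin n) F)) γ =
      Nat.gcd n (Fintype.card F - 1) := by
  obtain ⟨g, rfl, rfl, -⟩ := hR
  have hd : ((g⁻¹ : GL (Fin n) F) : Matrix (Fin n) (Fin n) F).det ≠ 0 :=
    ((Matrix.isUnit_iff_isUnit_det _).mp (g⁻¹ : GL (Fin n) F).isUnit).ne_zero
  rw [splitClassCount_psl (by omega) _ (powMonoidHom n : Fˣ →* Fˣ).range, IsCyclic.index_powMonoidHom_range,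
    card_units rfl, Nat.gcd_comm]
  intro a
  rw [mem_B h3]
  constructor
  · rintro ⟨b, rfl⟩
    refine ⟨sc b, b * b, 1, ?_, ?_⟩
    · rw [sc_coe, Matrix.transpose_smul, Matrix.transpose_one, Matrix.smul_mul, Matrix.one_mul, Matrix.mul_smul,
        Matrix.mul_one, smul_smul, Units.val_mul]
    · rw [detU_sc, one_pow, mul_one]; rfl
  · rintro ⟨s, c, w, hs, h2⟩
    obtain ⟨t, -, ht⟩ := det_else hn hd hs
    refine ⟨t * w⁻¹, ?_⟩
    have h5 : detU s = t ^ n := by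
      apply Units.ext
      rw [detU_coe, ht]
      simp
    rw [h5] at h2
    change (t * w⁻¹) ^ n = a
    rw [mul_pow, h2, inv_pow, mul_inv_cancel_right]

end H6.GrPSL
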