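import Mathlib
import Cfsg.Agent.Lib.H6.SLCard

/-!
Triple transitivity of `PGL₂` and `SL₂` on the projective line.
-/

set_option autoImplicit false
set_option linter.unusedSimpArgs false

namespace H6.ProjLine

open Matrix MulAction

open scoped MatrixGroups LinearAlgebra.Projectivization

theorem three_pretransitive_iff {G α : Type*} [Group G] [MulAction G α] :
    IsMultiplyPretransitive G α 3 ↔ ∀ a b c a' b' c' : α, a ≠ b → a ≠ c → b ≠ c →
      a' ≠ b' → a' ≠ c' → b' ≠ c' → ∃ g : G, g • a = a' ∧ g • b = b' ∧ g • c = c' := by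
  constructor
  · intro h a b c a' b' c' h1 h2 h3 h4 h5 h6
    have hinj : Function.Injective ![a, b, c] := by
      intro i j hij
      fin_cases i <;> fin_cases j <;> simp_all
    have hinj' : Function.Injective ![a', b', c'] := by
      intro i j hij
      fin_cases i <;> fin_cases j <;> simp_all
    obtain ⟨g, hg⟩ := h.exists_smul_eq (⟨_, hinj⟩ : Fin 3 ↪ α) ⟨_, hinj'⟩
    have e0 := DFunLike.congr_fun hg 0
    have e1 := DFunLike.congr_fun hg 1
    have e2 := DFunLike.congr_fun hg 2
    exact ⟨g, e0, e1, e2⟩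
  · intro H
    constructor
    intro x y
    obtain ⟨g, h0, h1, h2⟩ := H (x 0) (x 1) (x 2) (y 0) (y 1) (y 2)
      (x.injective.ne (by decide)) (x.injective.ne (by decide)) (x.injective.ne (by decide))
      (y.injective.ne (by decide)) (y.injective.ne (by decide)) (y.injective.ne (by decide))
    refine ⟨g, ?_⟩
    ext i
    fin_cases i
    · exact h0
    · exact h1
    · exact h2

theorem three_pretransitive_of_base {G α : Type*} [Group G] [MulAction G α] (x y z : α)
    (H : ∀ a b c : α, a ≠ b → a ≠ c → b ≠ c → ∃ g : G, g • x = a ∧ g • y = b ∧ g • z = c) :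
    IsMultiplyPretransitive G α 3 := by
  rw [three_pretransitive_iff]
  intro a b c a' b' c' h1 h2 h3 h4 h5 h6
  obtain ⟨g, g1, g2, g3⟩ := H a b c h1 h2 h3
  obtain ⟨h, k1, k2, k3⟩ := H a' b' c' h4 h5 h6
  refine ⟨h * g⁻¹, ?_, ?_, ?_⟩
  · rw [mul_smul, ← g1, inv_smul_smul, k1]
  · rw [mul_smul, ← g2, inv_smul_smul, k2]
  · rw [mul_smul, ← g3, inv_smul_smul, k3]

variable {F : Type*} [Field F]

/-- the determinant of two vectors -/
def dd (u v : Fin 2 → F) : F := u 0 * v 1 - u 1 * v 0

lemma mk_eq_mk_iff_dd {u v : Fin 2 → F} (hu : u ≠ 0) (hv : v ≠ 0) :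
    Projectivization.mk F u hu = Projectivization.mk F v hv ↔ dd u v = 0 := by
  rw [Projectivization.mk_eq_mk_iff']
  constructor
  · rintro ⟨a, rfl⟩
    simp only [dd, Pi.smul_apply, smul_eq_mul]
    ring
  · intro h
    unfold dd at h
    by_cases h0 : v 0 = 0
    · have h1 : v 1 ≠ 0 := by
        intro h1
        apply hv
        funext i
        fin_cases i
        · exact h0
        · exact h1
      refine ⟨u 1 / v 1, ?_⟩
      rw [h0, mul_zero, sub_zero] at h
      have hu0 : u 0 = 0 := by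
        rcases mul_eq_zero.1 h with h | h
        · exact h
        · exact absurd h h1
      funext i
      fin_cases i
      · simp [h0, hu0]
      · simp [div_mul_cancel₀ _ h1]
    · refine ⟨u 0 / v 0, ?_⟩
      funext i
      fin_cases i
      · simp [div_mul_cancel₀ _ h0]
      · simp only [Fin.mk_one, Pi.smul_apply, smul_eq_mul]
        field_simp
        linear_combination h

/-- coordinates with respect to two independent vectors -/
lemma exists_coord {u v w : Fin 2 → F} (h : dd u v ≠ 0) :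
    w = (dd w v / dd u v) • u + (dd u w / dd u v) • v := by
  funext i
  have h' : u 0 * v 1 - u 1 * v 0 ≠ 0 := h
  fin_cases i
  · simp only [dd, Fin.zero_eta, Pi.add_apply, Pi.smul_apply, smul_eq_mul]
    rw [div_mul_eq_mul_div, div_mul_eq_mul_div, ← add_div, eq_div_iff h']
    ring
  · simp only [dd, Fin.mk_one, Pi.add_apply, Pi.smul_apply, smul_eq_mul]
    rw [div_mul_eq_mul_div, div_mul_eq_mul_div, ← add_div, eq_div_iff h']
    ring

lemma e0_ne : (Pi.single 0 1 : Fin 2 → F) ≠ 0 := Pi.single_ne_zero_iff.2 one_ne_zero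

lemma e1_ne : (Pi.single 1 1 : Fin 2 → F) ≠ 0 := Pi.single_ne_zero_iff.2 one_ne_zero

lemma e01_ne : (![1, 1] : Fin 2 → F) ≠ 0 := by
  intro h
  have := congrFun h 0
  simp at this

/-- Given three distinct points there is a matrix with non-zero determinant moving the base triple
to it. -/
theorem exists_matrix {a b c : ℙ F (Fin 2 → F)} (hab : a ≠ b) (hac : a ≠ c) (hbc : b ≠ c) :
    ∃ u v : Fin 2 → F, ∃ (hu : u ≠ 0) (hv : v ≠ 0) (huv : u + v ≠ 0), dd u v ≠ 0 ∧
      a = Projectivization.mk F u hu ∧ b = Projectivization.mk F v hv ∧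
      c = Projectivization.mk F (u + v) huv := by
  induction a using Projectivization.ind with | _ u hu
  induction b using Projectivization.ind with | _ v hv
  induction c using Projectivization.ind with | _ w hw
  rw [Ne, mk_eq_mk_iff_dd] at hab hac hbc
  have hs : dd w v / dd u v ≠ 0 := by
    apply div_ne_zero _ hab
    intro h
    apply hbc
    unfold dd at h ⊢
    linear_combination -h
  have ht : dd u w / dd u v ≠ 0 := div_ne_zero hac hab
  have hw' := exists_coord (w := w) hab
  set s := dd w v / dd u v with hs'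
  set t := dd u w / dd u v with ht'
  have hsu : s • u ≠ 0 := smul_ne_zero hs hu
  have htv : t • v ≠ 0 := smul_ne_zero ht hv
  refine ⟨s • u, t • v, hsu, htv, by rw [← hw']; exact hw, ?_, ?_, ?_, ?_⟩
  · have : dd (s • u) (t • v) = s * t * dd u v := by
      simp only [dd, Pi.smul_apply, smul_eq_mul]; ring
    rw [this]
    exact mul_ne_zero (mul_ne_zero hs ht) hab
  · rw [Projectivization.mk_eq_mk_iff']
    exact ⟨s⁻¹, by rw [smul_smul, inv_mul_cancel₀ hs, one_smul]⟩
  · rw [Projectivization.mk_eq_mk_iff']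
    exact ⟨t⁻¹, by rw [smul_smul, inv_mul_cancel₀ ht, one_smul]⟩
  · congr 1

/-- matrix with given columns -/
def colMat (u v : Fin 2 → F) : Matrix (Fin 2) (Fin 2) F := !![u 0, v 0; u 1, v 1]

lemma det_colMat (u v : Fin 2 → F) : (colMat u v).det = dd u v := by
  rw [colMat, Matrix.det_fin_two_of, dd]; ring

lemma colMat_e0 (u v : Fin 2 → F) : colMat u v *ᵥ Pi.single 0 1 = u := by
  funext i
  fin_cases i <;> simp [colMat]

lemma colMat_e1 (u v : Fin 2 → F) : colMat u v *ᵥ Pi.single 1 1 = v := by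
  funext i
  fin_cases i <;> simp [colMat]

lemma colMat_e01 (u v : Fin 2 → F) : colMat u v *ᵥ ![1, 1] = u + v := by
  funext i
  fin_cases i <;> simp [colMat, Matrix.mulVec, dotProduct, Fin.sum_univ_two]

/-- `GL₂` -/
noncomputable def colGL (u v : Fin 2 → F) (h : dd u v ≠ 0) : GL (Fin 2) F :=
  GeneralLinearGroup.mkOfDetNeZero (colMat u v) (by rw [det_colMat]; exact h)

lemma colGL_smul (u v : Fin 2 → F) (h : dd u v ≠ 0) (w : Fin 2 → F) :
    colGL u v h • w = colMat u v *ᵥ w := rfl

/-- `SL₂` -/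
noncomputable def colSL (u v : Fin 2 → F) (h : dd u v = 1) : SpecialLinearGroup (Fin 2) F :=
  ⟨colMat u v, by rw [det_colMat]; exact h⟩

lemma colSL_smul (u v : Fin 2 → F) (h : dd u v = 1) (w : Fin 2 → F) :
    colSL u v h • w = colMat u v *ᵥ w := rfl

theorem pgl_three_transitive :
    IsMultiplyPretransitive (ProjGenLinGroup (Fin 2) F) (ℙ F (Fin 2 → F)) 3 := by
  refine three_pretransitive_of_base (Projectivization.mk F _ e0_ne)
    (Projectivization.mk F _ e1_ne) (Projectivization.mk F _ e01_ne) ?_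
  intro a b c hab hac hbc
  obtain ⟨u, v, hu, hv, huv, hdd, rfl, rfl, rfl⟩ := exists_matrix hab hac hbc
  refine ⟨ProjGenLinGroup.mk (colGL u v hdd), ?_, ?_, ?_⟩
  · rw [Projectivization.PGL.mk_smul_mk]
    congr 1
    rw [colGL_smul, colMat_e0]
  · rw [Projectivization.PGL.mk_smul_mk]
    congr 1
    rw [colGL_smul, colMat_e1]
  · rw [Projectivization.PGL.mk_smul_mk]
    congr 1
    rw [colGL_smul, colMat_e01]

theorem pgl_sharp (g : ProjGenLinGroup (Fin 2) F) (a b c : ℙ F (Fin 2 → F))
    (hab : a ≠ b) (hac : a ≠ c) (hbc : b ≠ c) (ha : g • a = a) (hb : g • b = b) (hc : g • c = c) :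
    g = 1 := by
  obtain ⟨u, v, hu, hv, huv, hdd, rfl, rfl, rfl⟩ := exists_matrix hab hac hbc
  induction g using ProjGenLinGroup.induction_on with | mk A
  rw [Projectivization.PGL.mk_smul_mk, Projectivization.mk_eq_mk_iff'] at ha hb hc
  obtain ⟨α, hα⟩ := ha
  obtain ⟨β, hβ⟩ := hb
  obtain ⟨γ, hγ⟩ := hc
  have hα' : A.1 *ᵥ u = α • u := hα.symm
  have hβ' : A.1 *ᵥ v = β • v := hβ.symm
  have hγ' : A.1 *ᵥ (u + v) = γ • (u + v) := hγ.symm
  rw [Matrix.mulVec_add, hα', hβ'] at hγ'
  have h0 := congrFun hγ' 0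
  have h1 := congrFun hγ' 1
  simp only [Pi.add_apply, Pi.smul_apply, smul_eq_mul] at h0 h1
  have hdd' : u 0 * v 1 - u 1 * v 0 ≠ 0 := hdd
  have hαγ : α = γ := by
    have : (α - γ) * (u 0 * v 1 - u 1 * v 0) = 0 := by
      linear_combination (v 1) * h0 - (v 0) * h1
    rcases mul_eq_zero.1 this with h | h
    · exact sub_eq_zero.1 h
    · exact absurd h hdd'
  have hβγ : β = γ := by
    have : (β - γ) * (u 0 * v 1 - u 1 * v 0) = 0 := by
      linear_combination (-u 1) * h0 + (u 0) * h1
    rcases mul_eq_zero.1 this with h | h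
    · exact sub_eq_zero.1 h
    · exact absurd h hdd'
  rw [ProjGenLinGroup.mk_eq_one, GeneralLinearGroup.mem_center_iff_val_mem_range_scalar]
  refine ⟨γ, ?_⟩
  have key : ∀ w : Fin 2 → F, A.1 *ᵥ w = γ • w := by
    intro w
    rw [exists_coord (w := w) hdd, Matrix.mulVec_add, Matrix.mulVec_smul, Matrix.mulVec_smul,
      hα', hβ', hαγ, hβγ, smul_add, smul_comm γ, smul_comm γ]
  ext i j
  have h2 := congrFun (key (Pi.single j 1)) i
  rw [Matrix.mulVec_single_one] at h2
  simp only [Matrix.col_apply, Pi.smul_apply, smul_eq_mul] at h2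
  rw [h2]
  simp [Matrix.scalar_apply, Matrix.diagonal_apply, Pi.single_apply]

theorem sl_three_transitive_iff [Fintype F] :
    IsMultiplyPretransitive (SpecialLinearGroup (Fin 2) F) (ℙ F (Fin 2 → F)) 3 ↔
      ringChar F = 2 := by
  constructor
  · intro h
    by_contra hchar
    obtain ⟨z, hz⟩ := FiniteField.exists_nonsquare hchar
    rw [three_pretransitive_iff] at h
    have hz0 : z ≠ 0 := by
      rintro rfl
      exact hz (IsSquare.zero)
    have hzne : (![1, z] : Fin 2 → F) ≠ 0 := by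
      intro h
      have := congrFun h 0
      simp at this
    obtain ⟨g, h1, h2, h3⟩ := h (Projectivization.mk F _ e0_ne)
      (Projectivization.mk F _ e1_ne) (Projectivization.mk F _ e01_ne)
      (Projectivization.mk F _ e0_ne) (Projectivization.mk F _ e1_ne)
      (Projectivization.mk F _ hzne)
      (by rw [Ne, mk_eq_mk_iff_dd]; simp [dd]) (by rw [Ne, mk_eq_mk_iff_dd]; simp [dd])
      (by rw [Ne, mk_eq_mk_iff_dd]; simp [dd]) (by rw [Ne, mk_eq_mk_iff_dd]; simp [dd])
      (by rw [Ne, mk_eq_mk_iff_dd]; simp [dd, hz0]) (by rw [Ne, mk_eq_mk_iff_dd]; simp [dd])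
    rw [Projectivization.smul_mk, Projectivization.mk_eq_mk_iff'] at h1 h2 h3
    obtain ⟨α, hα⟩ := h1
    obtain ⟨β, hβ⟩ := h2
    obtain ⟨γ, hγ⟩ := h3
    have hα' : g.1 *ᵥ (Pi.single 0 1) = α • (Pi.single 0 1) := hα.symm
    have hβ' : g.1 *ᵥ (Pi.single 1 1) = β • (Pi.single 1 1) := hβ.symm
    have hγ' : g.1 *ᵥ (![1, 1]) = γ • ![1, z] := hγ.symm
    have g00 : g.1 0 0 = α := by have := congrFun hα' 0; simpa using this
    have g10 : g.1 1 0 = 0 := by have := congrFun hα' 1; simpa using this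
    have g01 : g.1 0 1 = 0 := by have := congrFun hβ' 0; simpa using this
    have g11 : g.1 1 1 = β := by have := congrFun hβ' 1; simpa using this
    have hdet := g.2
    rw [Matrix.det_fin_two, g00, g10, g01, g11] at hdet
    have e0 := congrFun hγ' 0
    have e1 := congrFun hγ' 1
    simp [Matrix.mulVec, dotProduct, Fin.sum_univ_two, g00, g10, g01, g11] at e0 e1
    apply hz
    refine ⟨β, ?_⟩
    have h4 : α * β = 1 := by linear_combination hdet
    rw [← e0] at e1
    calc z = (α * β) * z := by rw [h4, one_mul]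
      _ = β * (α * z) := by ring
      _ = β * β := by rw [← e1]
  · intro hchar
    refine three_pretransitive_of_base (Projectivization.mk F _ e0_ne)
      (Projectivization.mk F _ e1_ne) (Projectivization.mk F _ e01_ne) ?_
    intro a b c hab hac hbc
    obtain ⟨u, v, hu, hv, huv, hdd, rfl, rfl, rfl⟩ := exists_matrix hab hac hbc
    obtain ⟨r, hr⟩ := FiniteField.isSquare_of_char_two hchar (dd u v)
    have hr0 : r ≠ 0 := by
      rintro rfl
      apply hdd
      rw [hr]; ring
    have hdet : dd (r⁻¹ • u) (r⁻¹ • v) = 1 := by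
      have : dd (r⁻¹ • u) (r⁻¹ • v) = r⁻¹ * r⁻¹ * dd u v := by
        simp only [dd, Pi.smul_apply, smul_eq_mul]; ring
      rw [this, hr]
      field_simp
    refine ⟨colSL (r⁻¹ • u) (r⁻¹ • v) hdet, ?_, ?_, ?_⟩
    · rw [Projectivization.smul_mk, Projectivization.mk_eq_mk_iff']
      exact ⟨r⁻¹, (colMat_e0 _ _).symm⟩
    · rw [Projectivization.smul_mk, Projectivization.mk_eq_mk_iff']
      exact ⟨r⁻¹, (colMat_e1 _ _).symm⟩
    · rw [Projectivization.smul_mk, Projectivization.mk_eq_mk_iff']
      refine ⟨r⁻¹, ?_⟩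
      rw [smul_add]
      exact (colMat_e01 _ _).symm

end H6.ProjLine
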