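import Mathlib
import Cfsg.Agent.Lib.H6.SLCard
import Cfsg.Agent.Lib.H6.SmallIsoA

/-!
`SL₂(3)` has a normal quaternion subgroup of index 3.
-/

set_option autoImplicit false
set_option linter.unusedSimpArgs false
set_option linter.unusedVariables false

namespace H6.SL23

open Matrix Matrix.SpecialLinearGroup

instance : Fact (Nat.Prime 3) := ⟨by norm_num⟩

/-- the matrices of the quaternion group -/
def fm : QuaternionGroup 2 → Matrix (Fin 2) (Fin 2) (ZMod 3)
  | .a k => (![!![1, 0; 0, 1], !![0, 2; 1, 0], !![2, 0; 0, 2], !![0, 1; 2, 0]] :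
      Fin 4 → Matrix (Fin 2) (Fin 2) (ZMod 3)) k
  | .xa k => !![1, 1; 1, 2] * (![!![1, 0; 0, 1], !![0, 2; 1, 0], !![2, 0; 0, 2], !![0, 1; 2, 0]] :
      Fin 4 → Matrix (Fin 2) (Fin 2) (ZMod 3)) k

lemma fm_det : ∀ x, (fm x).det = 1 := by decide +kernel

lemma fm_mul : ∀ x y, fm (x * y) = fm x * fm y := by decide +kernel

lemma fm_one : fm 1 = 1 := by decide +kernel

lemma fm_inj : ∀ x y, fm x = fm y → x = y := by decide +kernel

/-- the homomorphism -/
def fh : QuaternionGroup 2 →* SpecialLinearGroup (Fin 2) (ZMod 3) where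
  toFun x := ⟨fm x, fm_det x⟩
  map_one' := by apply Subtype.ext; exact fm_one
  map_mul' x y := by apply Subtype.ext; exact fm_mul x y

lemma fh_injective : Function.Injective fh := by
  intro x y h
  exact fm_inj x y (congrArg Subtype.val h)

lemma fm_conj01 : ∀ x, ∃ y, !![1, 1; 0, 1] * fm x = fm y * !![1, 1; 0, 1] := by decide +kernel

lemma fm_conj10 : ∀ x, ∃ y, !![1, 0; 1, 1] * fm x = fm y * !![1, 0; 1, 1] := by decide +kernel

lemma mem_normalizer_range {g : SpecialLinearGroup (Fin 2) (ZMod 3)}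
    (h : ∀ x, ∃ y, g.1 * fm x = fm y * g.1) : g ∈ Subgroup.normalizer (fh.range : Set _) := by
  apply Subgroup.mem_normalizer_fintype
  rintro _ ⟨x, rfl⟩
  obtain ⟨y, hy⟩ := h x
  refine ⟨y, ?_⟩
  rw [eq_mul_inv_iff_mul_eq]
  apply Subtype.ext
  exact hy.symm

lemma range_normal : fh.range.Normal := by
  rw [← Subgroup.normalizer_eq_top_iff]
  apply SmallIsoA.eq_top_zmod
  intro i j hij
  apply mem_normalizer_range
  fin_cases i <;> fin_cases j
  · exact absurd rfl hij
  · have h := SmallIsoA.tv01 (1 : ZMod 3) hij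
    intro x
    obtain ⟨y, hy⟩ := fm_conj01 x
    refine ⟨y, ?_⟩
    erw [h]
    exact hy
  · have h := SmallIsoA.tv10 (1 : ZMod 3) hij
    intro x
    obtain ⟨y, hy⟩ := fm_conj10 x
    refine ⟨y, ?_⟩
    erw [h]
    exact hy
  · exact absurd rfl hij

lemma range_index : fh.range.index = 3 := by
  have h := SLCard.card_sl (F := ZMod 3) (n := 2) (by norm_num)
  rw [Fin.prod_univ_two, ZMod.card] at h
  have h1 : Nat.card fh.range = 8 := by
    rw [← Nat.card_congr (MonoidHom.ofInjective fh_injective).toEquiv, Nat.card_eq_fintype_card,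
      QuaternionGroup.card]
  have h2 := Subgroup.card_mul_index fh.range
  rw [h1] at h2
  norm_num [-Nat.card_eq_fintype_card] at h
  omega

theorem main {F : Type*} [Field F] [Fintype F] (hF : Fintype.card F = 3) :
    (∃ Q : Subgroup (Matrix.SpecialLinearGroup (Fin 2) F), Q.Normal ∧ Q.index = 3 ∧
      Nonempty (Q ≃* QuaternionGroup 2)) ∧
      Nat.card (Subgroup.center (Matrix.SpecialLinearGroup (Fin 2) F)) = 2 := by
  have e : F ≃+* ZMod 3 := FiniteField.ringEquivOfCardEq (by rw [hF, ZMod.card])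
  let E : Matrix.SpecialLinearGroup (Fin 2) (ZMod 3) ≃* Matrix.SpecialLinearGroup (Fin 2) F :=
    Frame.slCongr e.symm
  constructor
  · refine ⟨fh.range.map E.toMonoidHom, ?_, ?_, ⟨?_⟩⟩
    · have := range_normal
      exact Subgroup.Normal.map this _ E.surjective
    · exact (Subgroup.index_map_equiv _ E).trans range_index
    · exact (E.subgroupMap fh.range).symm.trans (MonoidHom.ofInjective fh_injective).symm
  · rw [SLCard.card_center_sl, hF, Fintype.card_fin]
    rfl

end H6.SL23
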